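import Cfsg.Agent.H141.Ux.Stmts
import Cfsg.Agent.LieClassical.OrthFinite

/-!
# UX (S5716), UK3: four small lemmas on quadratic forms (helper637)

`E_le`, `exists_quad`, `E_le_iso`, `sp_not_quad` of `tools/plans/S5716_UK3_quad.lean.txt`.
-/

set_option autoImplicit false

namespace Cfsg.Agent.H637.Ux

open Module Cfsg.Agent.H847.Bs Cfsg.Agent.LieClassical.OrthCore QuadraticMap

variable {F U : Type} [Field F] [AddCommGroup U] [Module F U]

/-- proportional quadratic forms have the same group -/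
theorem E_le {Q₀ Q' : QuadraticForm F U} {c : F} (hc : c ≠ 0) (h : ∀ v, Q₀ v = c * Q' v) : E Q₀ ≤ E Q' := by
  have hp : ∀ x y, polar Q₀ x y = c * polar Q' x y := by
    intro x y
    simp only [polar, h]
    ring
  rw [E, Subgroup.closure_le]
  rintro _ ⟨u, w, hu, hw, rfl⟩
  have hu' : Q' u = 0 := by
    rw [h] at hu
    exact (mul_eq_zero.1 hu).resolve_left hc
  have hw' : polar Q' u (c • w) = 0 := by
    rw [polar_smul_right, smul_eq_mul, ← hp]
    exact hw
  have h1 : siegel Q₀ u w hu hw = siegel Q' u (c • w) hu' hw' := by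
    ext v
    rw [siegel_apply, siegel_apply, hp, hp, h, polar_smul_left, smul_eq_mul, QuadraticMap.map_smul, smul_eq_mul, smul_smul]
    have e1 : c * Q' w * (c * polar Q' u v) = c * c * Q' w * polar Q' u v := by ring
    have e2 : polar Q' u v * c = c * polar Q' u v := by ring
    rw [e1, e2]
  rw [h1]
  exact siegel_mem_E hu' hw'

/-- an isometry of a quadratic form is an isometry of its polar form -/
theorem E_le_iso {Ψ : Frm F U} (hΨ : IsSp Ψ) {Q : QuadraticForm F U} (hB : ∀ x y, polar Q x y = Ψ.B x y) :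
    E Q ≤ Ψ.Iso := by
  intro g hg
  have h1 := E_le_O hg
  refine ⟨fun x y => ?_, fun x => ?_⟩
  · rw [← hB, ← hB, polar_map h1]
  · rw [hΨ.q, hΨ.q]

/-- characteristic two: the quadratic forms with a given alternating polar form -/
theorem exists_quad [Module.Finite F U] {Ψ : Frm F U} (hΨ : IsSp Ψ) (h2 : (2 : F) = 0) :
    ∃ Q : QuadraticForm F U, ∀ x y, polar Q x y = Ψ.B x y := by
  let B : U →ₗ[F] U →ₗ[F] F := LinearMap.mk₂ F Ψ.B Ψ.add_left (fun c x y => by rw [Ψ.smul_left, smul_eq_mul])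
    Ψ.add_right (fun c x y => by rw [Ψ.smul_right, hΨ.s, smul_eq_mul])
  have hBd : ∀ x y, B x y = Ψ.B x y := fun _ _ => rfl
  have halt : ∀ x, B x x = 0 := fun x => hΨ.alt x
  have hsymm : ∀ x y, B x y = B y x := by
    intro x y
    have h1 := halt (x + y)
    simp only [map_add, LinearMap.add_apply, halt, zero_add, add_zero] at h1
    linear_combination h1 - B y x * h2
  let b := Module.finBasis F U
  let C : U →ₗ[F] U →ₗ[F] F := b.constr F fun i => b.constr F fun j => if i < j then B (b i) (b j) else 0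
  have hC : ∀ i j, C (b i) (b j) = if i < j then B (b i) (b j) else 0 := by
    intro i j
    simp only [C, Basis.constr_basis]
  have hCB : C + C.flip = B := by
    refine b.ext fun i => b.ext fun j => ?_
    rw [LinearMap.add_apply, LinearMap.add_apply, LinearMap.flip_apply, hC, hC]
    rcases lt_trichotomy i j with h | h | h
    · rw [if_pos h, if_neg (not_lt.2 h.le), add_zero]
    · rw [h, if_neg (lt_irrefl _), add_zero, halt]
    · rw [if_neg (not_lt.2 h.le), if_pos h, zero_add, hsymm]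
  refine ⟨LinearMap.BilinMap.toQuadraticMap C, fun x y => ?_⟩
  rw [LinearMap.BilinMap.polar_toQuadraticMap, ← hBd, ← hCB]
  rfl

/-- a transvection of a symplectic form -/
theorem exists_transvection {Ψ : Frm F U} (hΨ : IsSp Ψ) (v : U) :
    ∃ t ∈ Ψ.Iso, ∀ y, t y = y + Ψ.B y v • v := by
  have hvv := hΨ.alt v
  let L : F → (U →ₗ[F] U) := fun a =>
    { toFun := fun y => y + (a * Ψ.B y v) • v
      map_add' := by
        intro x y
        rw [Ψ.add_left, mul_add, add_smul]; abel
      map_smul' := by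
        intro c x
        rw [Ψ.smul_left, RingHom.id_apply, smul_add, smul_smul]
        congr 2
        ring }
  have hL : ∀ a y, L a y = y + (a * Ψ.B y v) • v := fun _ _ => rfl
  have hcomp : ∀ a b y, L a (L b y) = L (a + b) y := by
    intro a b y
    rw [hL a, hL b, hL (a + b), Ψ.add_left, Ψ.smul_left, hvv, mul_zero, add_zero, add_assoc, ← add_smul]
    congr 2
    ring
  have h0 : ∀ y, L 0 y = y := by
    intro y
    rw [hL, zero_mul, zero_smul, add_zero]
  let t : U ≃ₗ[F] U := LinearEquiv.ofLinearMap (L 1) (L (-1))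
    (LinearMap.ext fun y => by
      rw [LinearMap.comp_apply, hcomp, show (1 : F) + -1 = 0 by ring, h0]; rfl)
    (LinearMap.ext fun y => by
      rw [LinearMap.comp_apply, hcomp, show (-1 : F) + 1 = 0 by ring, h0]; rfl)
  have ht : ∀ y, t y = y + Ψ.B y v • v := by
    intro y
    show L 1 y = _
    rw [hL, one_mul]
  refine ⟨t, ⟨fun x y => ?_, fun x => ?_⟩, ht⟩
  · have hanti : ∀ x y, Ψ.B x y = -Ψ.B y x := by
      intro x y
      have h1 := hΨ.alt (x + y)
      rw [Ψ.add_left, Ψ.add_right, Ψ.add_right, hΨ.alt, hΨ.alt, zero_add, add_zero] at h1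
      linear_combination h1
    rw [ht, ht, Ψ.add_left, Ψ.add_right, Ψ.add_right, Ψ.smul_left, Ψ.smul_left, Ψ.smul_right, Ψ.smul_right, hΨ.s, hvv,
      hanti v y]
    ring
  · rw [hΨ.q, hΨ.q]

/-- the symplectic group does not fix a quadratic form -/
theorem sp_not_quad [Finite F] [Module.Finite F U] {Ψ : Frm F U} (hΨ : IsSp Ψ) {Q₀ : QuadraticForm F U}
    (h0 : (frmQ Q₀).Nd) (hd : 5 ≤ finrank F U)
    {c : F} (hB : ∀ x y, polar Q₀ x y = c * Ψ.B x y) (h : Ψ.Iso ≤ (frmQ Q₀).Iso) : False := by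
  have : Nontrivial U := Module.finrank_pos_iff.1 (lt_of_lt_of_le (by norm_num) hd)
  obtain ⟨u, hu⟩ := exists_ne (0 : U)
  have hc : c ≠ 0 := by
    rintro rfl
    apply hu
    apply h0 u
    intro y
    show polar Q₀ u y = 0
    rw [hB, zero_mul]
  obtain ⟨v, -, hv, hv0⟩ := Cfsg.Agent.LieClassical.OrthFinite.exists_sing_mem (Q := Q₀) (⊤ : Submodule F U) (by rw [finrank_top]; omega)
  obtain ⟨t, ht, hty⟩ := exists_transvection hΨ v
  have h1 := (h ht).2
  obtain ⟨y, hy⟩ : ∃ y, Ψ.B y v ≠ 0 := by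
    by_contra hcon
    push Not at hcon
    exact hv (hΨ.nd v fun y => Ψ.refl _ _ (hcon y))
  have h2 : Q₀ (t y) = Q₀ y := h1 y
  rw [hty, Q_add, QuadraticMap.map_smul, hv0, smul_zero, add_zero, polar_smul_right, hB, smul_eq_mul] at h2
  have h3 : Ψ.B y v * (c * Ψ.B y v) = 0 := by linear_combination h2
  rcases mul_eq_zero.1 h3 with h4 | h4
  · exact hy h4
  · rcases mul_eq_zero.1 h4 with h5 | h5
    · exact hc h5
    · exact hy h5

end Cfsg.Agent.H637.Ux
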