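import Cfsg.Agent.H637.Ux.Quad

/-!
# UX (S5716), UK3: `quad_perp`, `quad_eq` of `tools/plans/S5716_UK3_quad.lean.txt` (helper637)
-/

set_option autoImplicit false

namespace Cfsg.Agent.H637.Ux

open Module Cfsg.Agent.H847.Bs Cfsg.Agent.LieClassical.OrthCore QuadraticMap

variable {F U : Type} [Field F] [AddCommGroup U] [Module F U] {Q : QuadraticForm F U}

/-- hyperbolic partner of a singular vector -/
theorem exists_partner (hnd : (frmQ Q).Nd) {v : U} (hv0 : v ≠ 0) (hv : Q v = 0) :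
    ∃ t, Q t = 0 ∧ polar Q v t = 1 := by
  obtain ⟨z, hz⟩ := Nondeg.exists_polar_eq (Q := Q) hnd hv0 1
  have hvv : polar Q v v = 0 := polar_self_of_sing hv
  refine ⟨z + (-Q z) • v, ?_, ?_⟩
  · rw [Q_add, QuadraticMap.map_smul, hv, smul_zero, add_zero, polar_smul_right, polar_comm, hz, smul_eq_mul]
    ring
  · rw [polar_add_right, polar_smul_right, hvv, hz, smul_zero, add_zero]

/-- siegel elements with a given centre, fixing a vector and moving another one -/
theorem exists_siegel [Module.Finite F U] (hnd : (frmQ Q).Nd) (hd : 5 ≤ finrank F U) {v : U} (hv0 : v ≠ 0)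
    (hv : Q v = 0) (y : U) (hy : polar Q y v = 0) : ∃ g ∈ E Q, g y = y ∧ ∃ z, ∃ a : F, a ≠ 0 ∧ g z = z + a • v := by
  obtain ⟨t, ht, hvt⟩ := exists_partner hnd hv0 hv
  have hvv : polar Q v v = 0 := polar_self_of_sing hv
  have htt : polar Q t t = 0 := polar_self_of_sing ht
  have htv : polar Q t v = 1 := by rw [polar_comm]; exact hvt
  let f : U →ₗ[F] (Fin 3 → F) := LinearMap.pi ![polarBilin Q v, polarBilin Q t, polarBilin Q y]
  have hker : LinearMap.ker f ≠ ⊥ := LinearMap.ker_ne_bot_of_finrank_lt (by rw [Module.finrank_fin_fun]; omega)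
  obtain ⟨w, hw, hw0⟩ := Submodule.exists_mem_ne_zero_of_ne_bot hker
  have hfw : f w = 0 := hw
  have h1 : polar Q v w = 0 := congrFun hfw 0
  have h2 : polar Q t w = 0 := congrFun hfw 1
  have h3 : polar Q y w = 0 := congrFun hfw 2
  obtain ⟨z0, hz0⟩ := Nondeg.exists_polar_ne (Q := Q) hnd hw0
  refine ⟨siegel Q v w hv h1, siegel_mem_E hv h1, ?_, z0 + (-polar Q v z0) • t, -polar Q w z0, neg_ne_zero.2 hz0, ?_⟩
  · have h4 : polar Q v y = 0 := by rw [polar_comm]; exact hy
    have h5 : polar Q w y = 0 := by rw [polar_comm]; exact h3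
    rw [siegel_apply, h4, h5]
    simp
  · have h4 : polar Q v (z0 + (-polar Q v z0) • t) = 0 := by
      rw [polar_add_right, polar_smul_right, hvt, smul_eq_mul]; ring
    have h5 : polar Q w (z0 + (-polar Q v z0) • t) = polar Q w z0 := by
      have h6 : polar Q w t = 0 := by rw [polar_comm]; exact h2
      rw [polar_add_right, polar_smul_right, h6, smul_zero, add_zero]
    rw [siegel_apply, h4, h5]
    module

/-- `v^⊥ ≤ v^⊥₀` for `Q`-singular vectors -/
theorem quad_perp [Module.Finite F U] {Φ₀ : Frm F U} {Q' : QuadraticForm F U} (hnd : (frmQ Q').Nd) (hd : 5 ≤ finrank F U)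
    (h : E Q' ≤ Φ₀.Iso) : ∀ v, Q' v = 0 → ∀ y, polar Q' y v = 0 → Φ₀.B y v = 0 := by
  intro v hv y hy
  by_cases hv0 : v = 0
  · rw [hv0]
    exact Cfsg.Agent.H440.Bs.B_zero_right Φ₀ y
  obtain ⟨g, hg, hgy, z, a, ha, hgz⟩ := exists_siegel hnd hd hv0 hv y hy
  have h1 := (h hg).1 y z
  rw [hgy, hgz, Φ₀.add_right] at h1
  have h2 : Φ₀.B y (a • v) = 0 := by linear_combination h1
  have h3 : v = a⁻¹ • (a • v) := by rw [smul_smul, inv_mul_cancel₀ ha, one_smul]
  rw [h3, Φ₀.smul_right, h2, mul_zero]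

/-- two quadratic forms with proportional polar forms, both fixed by `E Q'` -/
theorem quad_eq [Finite F] [Module.Finite F U] {Q₀ Q' : QuadraticForm F U} (hnd : (frmQ Q').Nd) (hd : 5 ≤ finrank F U)
    {c : F} (hB : ∀ x y, polar Q₀ x y = c * polar Q' x y) (h : E Q' ≤ O Q₀) : ∀ v, Q₀ v = c * Q' v := by
  obtain ⟨δ, hδ⟩ : ∃ δ : U → F, ∀ v, δ v = Q₀ v - c * Q' v := ⟨_, fun _ => rfl⟩
  have hadd : ∀ x y, δ (x + y) = δ x + δ y := by
    intro x y
    rw [hδ, hδ, hδ, Q_add, Q_add, hB]
    ring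
  have hsmul : ∀ (a : F) x, δ (a • x) = a * a * δ x := by
    intro a x
    rw [hδ, hδ, QuadraticMap.map_smul, QuadraticMap.map_smul, smul_eq_mul, smul_eq_mul]
    ring
  have hfix : ∀ g ∈ E Q', ∀ x, δ (g x) = δ x := by
    intro g hg x
    rw [hδ, hδ, mem_O.1 (h hg), mem_O.1 (E_le_O hg)]
  -- singular vectors
  have hsing : ∀ v, Q' v = 0 → δ v = 0 := by
    intro v hv
    by_cases hv0 : v = 0
    · rw [hδ, hv0]; simp
    obtain ⟨g, hg, -, z, a, ha, hgz⟩ := exists_siegel hnd hd hv0 hv 0 (by simp)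
    have h1 := hfix g hg z
    rw [hgz, hadd, hsmul] at h1
    have h2 : a * a * δ v = 0 := by linear_combination h1
    exact (mul_eq_zero.1 h2).resolve_left (mul_ne_zero ha ha)
  obtain ⟨s, -, hs0, hs⟩ := Cfsg.Agent.LieClassical.OrthFinite.exists_sing_mem (Q := Q') (⊤ : Submodule F U)
    (by rw [finrank_top]; omega)
  obtain ⟨t, ht, hst⟩ := exists_partner hnd hs0 hs
  have hss : polar Q' s s = 0 := polar_self_of_sing hs
  have htt : polar Q' t t = 0 := polar_self_of_sing ht
  have hts : polar Q' t s = 1 := by rw [polar_comm]; exact hst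
  intro v
  have hv : δ v = 0 := by
    -- `v = a s + b t + y`, `y ⟂ s, t`
    obtain ⟨y, hy⟩ : ∃ y, y = v + (-polar Q' t v) • s + (-polar Q' s v) • t := ⟨_, rfl⟩
    have hys : polar Q' s y = 0 := by
      rw [hy, polar_add_right, polar_add_right, polar_smul_right, polar_smul_right, hss, hst, smul_eq_mul, smul_eq_mul]
      ring
    have hyt : polar Q' t y = 0 := by
      rw [hy, polar_add_right, polar_add_right, polar_smul_right, polar_smul_right, hts, htt, smul_eq_mul, smul_eq_mul]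
      ring
    have hsum : Q' (y + ((-Q' y) • s + t)) = 0 := by
      have e1 : polar Q' y ((-Q' y) • s + t) = 0 := by
        rw [polar_add_right, polar_smul_right, polar_comm Q' y s, polar_comm Q' y t, hys, hyt]
        simp
      rw [Q_add, e1, Q_add, QuadraticMap.map_smul, hs, ht, polar_smul_left, hst, smul_eq_mul, smul_eq_mul]
      ring
    have h1 : δ y = 0 := by
      have h2 := hsing _ hsum
      rw [hadd, hadd, hsmul, hsing s hs, hsing t ht] at h2
      linear_combination h2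
    rw [hy, hadd, hadd, hsmul, hsmul, hsing s hs, hsing t ht] at h1
    linear_combination h1
  rw [hδ] at hv
  linear_combination hv

end Cfsg.Agent.H637.Ux
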